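import Cfsg.Agent.BX.Five.PGLChk
import Cfsg.Agent.BX.Five.PGLTst
import Cfsg.Agent.BX.PGL.Iso
set_option linter.all false

/-!
# `PGL₂(11)` in the Baby Monster: the test at 5 and the deliverable (helper15)
-/

set_option autoImplicit false
set_option maxRecDepth 100000

namespace Cfsg.Agent.BX.Five.PGL

open Cfsg.Agent.H819.U33 Cfsg.Agent.BX.Cov Cfsg.Agent.BX.Max Cfsg.Agent.BX.Frame.Fr5
open Cfsg.Agent.BX.PGL (HH)
open Cfsg.Agent.Lib.PackMat Cfsg.Agent.Lib.PackMatMul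
open Cfsg.Agent.Lib.PackMatOrbit (getO)

theorem m5 : ∀ i : Fin 6, M5 i = Matrix.of fun j k : Fin 5 =>
    ((dg 14 (getO (oneM C5) dat.G0 i.val) (j.val + 5 * k.val) : ℕ) : ZMod 5) := by decide +kernel

theorem cover5 : Cover M5 dw [] tw := cover (M := M5) m5

theorem tw_eq : tw2 = tw := by decide +kernel

/-- **The test at 5.** -/
theorem nt5 (h5 : H5) (h47 : Gen47 G) : NT HH 5 :=
  nt5_of h5 cover5 y_mem dw_mem (tw_eq ▸ tests (BX.PGL.big h47))

/-- **The deliverable.** -/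
theorem ex (h5 : H5) (L : Loc G) (h47 : Gen47 G) : Ex11 G := BX.PGL.ex_of L h47 (nt5 h5 h47)

end Cfsg.Agent.BX.Five.PGL
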